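import Cfsg.Agent.Lib.ReeInvolution.Torus

/-!
The centraliser of the involution of the torus of `²G₂(q)` is `⟨a⟩ × L`, `L` the image of `SL₂(q)`.
-/

set_option autoImplicit false
set_option linter.unusedSectionVars false

namespace CfsgLib.ReeInvolution

open Cfsg.Lie
open CfsgLib.Twisted
open CfsgLib.Chevalley (auxG2 cert_G2 xG coe_xG xG_zero slFun SLRel slN slH slX slW slY chi torusHom acts_torus
  coe_torusHom prodU)
open scoped MatrixGroups

theorem cartan_neg_data : ∀ k < 2, chevG2.cartan k g2mab = -chevG2.cartan k g2ab ∧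
    chevG2.cartan k g2maaab = -chevG2.cartan k g2aaab := by
  decide +kernel

variable {K : Type*} [Field K] [Fintype K] [DecidableEq K] {m : ℕ} (hK : Fintype.card K = 3 ^ (2 * m + 1))
  {t : GL chevG2.Idx K} (ht : t ∈ chevG2.diagonalSubgroup K ⊓ twistedG2 K (3 ^ m))
  (hval : reeTorusVal (⟨t, ht⟩ : ↥(chevG2.diagonalSubgroup K ⊓ twistedG2 K (3 ^ m))) = -1)

include hK ht hval

/-- The values of the involution at the roots used. -/
theorem exists_chi : ∃ c, t = torusHom chevG2 K c ∧ ((chi chevG2 g2ab c : Kˣ) : K) = 1 ∧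
    ((chi chevG2 g2aaab c : Kˣ) : K) = 1 ∧ ((chi chevG2 g2mab c : Kˣ) : K) = 1 ∧
    ((chi chevG2 g2maaab c : Kˣ) : K) = 1 ∧ ((chi chevG2 6 c : Kˣ) : K) = -1 ∧
    ((chi chevG2 11 c : Kˣ) : K) = -1 := by
  obtain ⟨c, hgc, hfix⟩ := reeTorus_fixed hK ht
  have ha : ((chi chevG2 7 c : Kˣ) : K) = -1 := by
    rw [← hval]
    show _ = (t : Matrix chevG2.Idx chevG2.Idx K) _ _
    rw [hgc, coe_torusHom, Matrix.diagonal_apply_eq]
    rfl
  have hb : ((chi chevG2 6 c : Kˣ) : K) = -1 := by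
    have := hfix 7 (by norm_num)
    rw [reeTorus_data.1.2.2.1] at this
    rw [← this, g2Twist, reeTorus_data.1.2.2.2.2.1, ha]
    norm_num [((by decide : Odd 3).pow (n := m)).neg_one_pow]
  have h10 : ((chi chevG2 g2aaab c : Kˣ) : K) = 1 := by
    show ((chi chevG2 10 c : Kˣ) : K) = 1
    rw [(chi_ree c).1, Units.val_mul, Units.val_pow_eq_pow_val, ha, hb]
    norm_num
  have h8 : ((chi chevG2 g2ab c : Kˣ) : K) = 1 := by
    have := hfix g2aaab (by decide)
    rw [reeRho_data.1, h10, g2Twist, one_pow, one_pow] at this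
    exact this.symm
  have hneg : ∀ r r' : ℕ, (∀ k < 2, chevG2.cartan k r' = -chevG2.cartan k r) →
      ((chi chevG2 r c : Kˣ) : K) = 1 → ((chi chevG2 r' c : Kˣ) : K) = 1 := by
    intro r r' h e
    have : chi chevG2 r' c = (chi chevG2 r c)⁻¹ := by
      show ∏ k : Fin 2, c k ^ chevG2.cartan k r' = (∏ k : Fin 2, c k ^ chevG2.cartan k r)⁻¹
      rw [← Finset.prod_inv_distrib]
      refine Finset.prod_congr rfl fun k _ => ?_
      rw [h _ k.isLt, zpow_neg]
    rw [this, Units.val_inv_eq_inv_val, e, inv_one]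
  refine ⟨c, hgc, h8, h10, hneg _ _ (fun k hk => (cartan_neg_data k hk).1) h8,
    hneg _ _ (fun k hk => (cartan_neg_data k hk).2) h10, hb, ?_⟩
  rw [(chi_ree c).2, Units.val_mul, Units.val_pow_eq_pow_val, Units.val_pow_eq_pow_val, ha, hb]
  norm_num

theorem commute_homGL (g : SL(2, K)) : Commute t (homGL hK g) := by
  obtain ⟨c, hgc, h8, h10, h3, h1, -, -⟩ := exists_chi hK ht hval
  have hcm : ∀ r < 12, ((chi chevG2 r c : Kˣ) : K) = 1 → ∀ s, Commute t (xG cert_G2 r s) := by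
    intro r hr e s
    have := (acts_torus cert_G2 c).conj (⟨r, hr⟩ : Fin chevG2.nroots) s
    simp only [Equiv.Perm.coe_one, id_eq] at this
    rw [e, one_mul] at this
    rw [hgc]
    exact (mul_inv_eq_iff_eq_mul.1 this)
  have hS : (Subgroup.centralizer ({t} : Set (GL chevG2.Idx K))).comap (homGL hK) = ⊤ := by
    refine closure_slXY (fun s => ?_) (fun s => ?_)
    · show homGL hK (slX s) ∈ Subgroup.centralizer ({t} : Set (GL chevG2.Idx K))
      rw [homGL_X]
      refine Subgroup.mem_centralizer_iff.2 fun y hy => ?_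
      rw [Set.mem_singleton_iff.1 hy]
      exact ((hcm _ (by decide) h8 _).mul_right (hcm _ (by decide) h10 _)).eq
    · show homGL hK (slY s) ∈ Subgroup.centralizer ({t} : Set (GL chevG2.Idx K))
      rw [homGL_Y]
      refine Subgroup.mem_centralizer_iff.2 fun y hy => ?_
      rw [Set.mem_singleton_iff.1 hy]
      exact ((hcm _ (by decide) h3 _).mul_right (hcm _ (by decide) h1 _)).eq
  have hg : g ∈ (Subgroup.centralizer ({t} : Set (GL chevG2.Idx K))).comap (homGL hK) := hS ▸ Subgroup.mem_top g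
  exact Subgroup.mem_centralizer_iff.1 hg t rfl

/-- The unipotent elements centralised by the involution. -/
theorem exists_xR {u : GL chevG2.Idx K} (hu : u ∈ twistedG2 K (3 ^ m) ⊓ chevG2.posUnipotent K)
    (hc : t * u = u * t) : ∃ s, u = xR m s := by
  obtain ⟨x, s, v, rfl⟩ := (mem_unipotent_g2 hK (g2Twist_isTwist hK) le_rfl u).1 hu
  obtain ⟨c, hgc, -, -, -, -, h6, h11⟩ := exists_chi hK ht hval
  have h2 : (2 : K) ≠ 0 := by
    haveI : CharP K 3 := charP_ree hK
    exact Ring.two_ne_zero (by rw [ringChar.eq K 3]; norm_num)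
  have hp := g2Fixed_ok
  simp only [Bool.and_eq_true, beq_iff_eq] at hp
  let F : ℕ → K := fun r => if r = g2b then x else if r = g2a then x ^ 3 ^ m else
    if r = g2ab then s ^ 3 ^ m else if r = g2aab then v ^ 3 ^ m else
    if r = g2aaab then s + x * (x ^ 3 ^ m) ^ 3 else v + x ^ 2 * (x ^ 3 ^ m) ^ 3
  have e : wordG cert_G2 (reeWordU (3 ^ m) x s v) = prodU cert_G2 chevG2.posRoots F := by
    rw [(reeWordU_sorted hK x s v).1, hp.2]
    simp only [prodU, wordG, List.map_cons, List.map_nil, F, g2a, g2b, g2ab, g2aab, g2aaab, g2aaabb,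
      Nat.reduceEqDiff, ↓reduceIte]
  have hconj : wordG cert_G2 (reeWordU (3 ^ m) x s v) =
      prodU cert_G2 chevG2.posRoots fun r => ((chi chevG2 r c : Kˣ) : K) * F r := by
    have h1 : t * wordG cert_G2 (reeWordU (3 ^ m) x s v) * t⁻¹ = wordG cert_G2 (reeWordU (3 ^ m) x s v) := by
      rw [hc, mul_inv_cancel_right]
    conv_lhs => rw [← h1, e]
    rw [prodU, ← MulAut.conj_apply, map_list_prod, List.map_map, prodU]
    refine congrArg List.prod (List.map_congr_left fun r hr => ?_)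
    have hr' : r < chevG2.nroots := List.mem_range.1 (List.mem_filter.1 hr).1
    rw [Function.comp_apply, MulAut.conj_apply, hgc]
    exact (acts_torus cert_G2 c).conj ⟨r, hr'⟩ (F r)
  obtain ⟨k6, -, k11⟩ := reeWordU_coord hK hconj
  simp only [h6, h11, F, g2a, g2b, g2ab, g2aab, g2aaab, g2aaabb, Nat.reduceEqDiff, ↓reduceIte, neg_one_mul] at k6 k11
  have z : ∀ y : K, -y = y → y = 0 := fun y hy => by
    have : (2 : K) * y = 0 := by linear_combination -hy
    exact (mul_eq_zero.1 this).resolve_left h2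
  obtain rfl : x = 0 := z _ k6
  obtain rfl : v = 0 := z _ (by simpa [zero_pow two_ne_zero] using k11)
  have he : (3 : ℕ) ^ m ≠ 0 := (Nat.pow_pos (by norm_num)).ne'
  exact ⟨s, by simp [reeWordU, wordG, zero_pow he, xG_zero, xR]⟩

/-- A torus element is, up to the involution, in the image. -/
theorem exists_torus_decomp {b : GL chevG2.Idx K} (hb : b ∈ chevG2.diagonalSubgroup K ⊓ twistedG2 K (3 ^ m)) :
    ∃ g, b = homGL hK g ∨ b = t * homGL hK g := by
  have hsquare : ∀ (b' : ↥(chevG2.diagonalSubgroup K ⊓ twistedG2 K (3 ^ m))), IsSquare (reeTorusVal b') →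
      ∃ g, (b' : GL chevG2.Idx K) = homGL hK g := by
    rintro b' ⟨x, hx⟩
    have hx0 : x ≠ 0 := by
      rintro rfl
      obtain ⟨w, hw⟩ : IsUnit (reeTorusVal b') := IsUnit.map _ (Group.isUnit b')
      rw [mul_zero] at hx
      exact w.ne_zero (hw.trans hx)
    set c : Kˣ := Units.mk0 (x ^ (3 * 3 ^ m + 3)) (pow_ne_zero _ hx0)
    refine ⟨dgS c, (congrArg (fun w : ↥(chevG2.diagonalSubgroup K ⊓ twistedG2 K (3 ^ m)) => (w : GL chevG2.Idx K))
      (reeTorusVal_injective hK (a₁ := b') (a₂ := ⟨_, homGL_dgS_mem hK c, homGL_mem hK _⟩) ?_) :)⟩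
    rw [val_dgS, hx, eq_inv_mul_iff_mul_eq₀ (pow_ne_zero _ c.ne_zero)]
    show (x ^ (3 * 3 ^ m + 3)) ^ 3 ^ m * (x * x) = x ^ (3 * 3 ^ m + 3)
    have h3 := g2Twist_cycle hK x
    calc (x ^ (3 * 3 ^ m + 3)) ^ 3 ^ m * (x * x)
        = ((x ^ 3 ^ m) ^ 3 ^ m) ^ 3 * (x ^ 3 ^ m) ^ 3 * (x * x) := by
          simp only [← pow_mul, ← pow_add]; ring_nf
      _ = x * (x ^ 3 ^ m) ^ 3 * (x * x) := by rw [h3]
      _ = x ^ (3 * 3 ^ m + 3) := by rw [← pow_mul, pow_add, mul_comm 3 (3 ^ m)]; ring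
  set b' : ↥(chevG2.diagonalSubgroup K ⊓ twistedG2 K (3 ^ m)) := ⟨b, hb⟩
  set t' : ↥(chevG2.diagonalSubgroup K ⊓ twistedG2 K (3 ^ m)) := ⟨t, ht⟩
  by_cases hsq : IsSquare (reeTorusVal b')
  · obtain ⟨g, hg⟩ := hsquare b' hsq
    exact ⟨g, Or.inl hg⟩
  · have hn1 : ¬ IsSquare (-1 : K) := by
      rw [FiniteField.isSquare_neg_one_iff, hK, not_not, pow_succ, pow_mul, Nat.mul_mod, Nat.pow_mod]
      norm_num
    have hy : reeTorusVal b' ≠ 0 := fun e => hsq (by rw [e]; exact IsSquare.zero)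
    have hsq' : IsSquare (reeTorusVal (t' * b')) := by
      rw [map_mul, hval]
      rw [← quadraticChar_one_iff_isSquare (mul_ne_zero (neg_ne_zero.2 one_ne_zero) hy), map_mul,
        quadraticChar_neg_one_iff_not_isSquare.2 hsq, quadraticChar_neg_one_iff_not_isSquare.2 hn1]
      norm_num
    obtain ⟨g, hg⟩ := hsquare _ hsq'
    refine ⟨g, Or.inr ?_⟩
    rw [← hg]
    have htt : t' * (t' * b') = b' := reeTorusVal_injective hK (by rw [map_mul, map_mul, hval]; ring)
    exact (congrArg (fun w : ↥(chevG2.diagonalSubgroup K ⊓ twistedG2 K (3 ^ m)) => (w : GL chevG2.Idx K)) htt :).symm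

/-- The centraliser of the involution. -/
theorem exists_decomp {g : GL chevG2.Idx K} (hg : g ∈ twistedG2 K (3 ^ m)) (hc : t * g = g * t) :
    ∃ h, g = homGL hK h ∨ g = t * homGL hK h := by
  obtain ⟨s, hS⟩ := exists_isRankOne_ree hK
  have htB : t ∈ chevG2.borelSubgroup K := Subgroup.mem_sup_right ht.1
  have hB : ∀ b ∈ twistedG2 K (3 ^ m), b ∈ chevG2.borelSubgroup K → t * b = b * t →
      ∃ h, b = homGL hK h ∨ b = t * homGL hK h := by
    intro b hbG hbB hbc
    obtain ⟨u, d, huG, huU, hdG, hdH, rfl⟩ := hS.borel b hbG hbB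
    have hdt : t * d = d * t := by
      haveI := reeTorus_isCyclic hK
      letI : CommGroup ↥(chevG2.diagonalSubgroup K ⊓ twistedG2 K (3 ^ m)) := IsCyclic.commGroup
      exact (congrArg (fun w : ↥(chevG2.diagonalSubgroup K ⊓ twistedG2 K (3 ^ m)) => (w : GL chevG2.Idx K))
        (mul_comm (⟨t, ht⟩ : ↥(chevG2.diagonalSubgroup K ⊓ twistedG2 K (3 ^ m))) ⟨d, hdH, hdG⟩) :)
    have hu : t * u = u * t := by
      refine mul_right_cancel (b := d) ?_
      rw [mul_assoc t, hbc, mul_assoc, ← hdt, mul_assoc]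
    obtain ⟨y, rfl⟩ := exists_xR hK ht hval ⟨huG, huU⟩ hu
    obtain ⟨h, rfl | rfl⟩ := exists_torus_decomp hK ht hval ⟨hdH, hdG⟩
    · exact ⟨slX y * h, Or.inl (by rw [map_mul, homGL_X])⟩
    · refine ⟨slX y * h, Or.inr ?_⟩
      rw [map_mul, homGL_X, ← mul_assoc, ← mul_assoc, hu]
  have hout : ∀ g ∈ twistedG2 K (3 ^ m), t * g = g * t → g ∉ chevG2.borelSubgroup K →
      ∃ y b, b ∈ chevG2.borelSubgroup K ∧ g = xR m y * s * b := by
    intro g hg hc hgB
    obtain ⟨u, b, huG, huU, -, hbB, rfl⟩ := (hS.cover g hg).resolve_left hgB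
    have h1 : u⁻¹ * (t * u * t⁻¹) = 1 := by
      refine hS.eq_one_of_conj_mem (mul_mem (inv_mem huU)
        (CfsgLib.Chevalley.diagonal_conj_rootsU fullReeG2 {r | chevG2.IsPosRoot r} t ht.1 u huU)) ht.1 ?_
      have h2 : b * t * b⁻¹ ∈ chevG2.borelSubgroup K := mul_mem (mul_mem hbB htB) (inv_mem hbB)
      convert h2 using 1
      calc s⁻¹ * (u⁻¹ * (t * u * t⁻¹) * t) * s = (u * s)⁻¹ * (t * (u * s * b)) * b⁻¹ := by group
        _ = _ := by rw [hc]; group
    have hu : t * u = u * t := (eq_mul_inv_iff_mul_eq.1 (inv_mul_eq_one.1 h1)).symm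
    obtain ⟨y, rfl⟩ := exists_xR hK ht hval ⟨huG, huU⟩ hu
    exact ⟨y, b, hbB, rfl⟩
  by_cases hgB : g ∈ chevG2.borelSubgroup K
  · exact hB g hg hgB hc
  have hw : homGL hK slW ∉ chevG2.borelSubgroup K := fun e => by
    have := lower_eq_zero hK e
    simp at this
  obtain ⟨y, b, hbB, hgeq⟩ := hout g hg hc hgB
  obtain ⟨y₀, b₀, hb₀B, hweq⟩ := hout _ (homGL_mem hK _) (commute_homGL hK ht hval _).eq hw
  set g₀ := slX (y - y₀) * slW with hg₀
  have hbb : (homGL hK g₀)⁻¹ * g = b₀⁻¹ * b := by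
    rw [hg₀, map_mul, hweq, hgeq, show slX (y - y₀) = slX y * slX (-y₀) from by
      apply Subtype.ext
      simp only [Matrix.SpecialLinearGroup.coe_mul, CfsgLib.Chevalley.slX_coe]
      ext i j
      fin_cases i <;> fin_cases j <;> simp [Matrix.mul_apply, Fin.sum_univ_two] <;> ring]
    rw [map_mul, homGL_X, homGL_X]
    have : xR m (-y₀) = (xR m y₀)⁻¹ := by
      rw [← homGL_X hK, ← homGL_X hK, ← map_inv]
      congr 1
      refine eq_inv_of_mul_eq_one_right ?_
      apply Subtype.ext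
      simp only [Matrix.SpecialLinearGroup.coe_mul, Matrix.SpecialLinearGroup.coe_one, CfsgLib.Chevalley.slX_coe]
      ext i j
      fin_cases i <;> fin_cases j <;> simp [Matrix.mul_apply, Fin.sum_univ_two]
    rw [this]; group
  obtain ⟨h, hh⟩ := hB _ (mul_mem (inv_mem (homGL_mem hK g₀)) hg) (hbb ▸ mul_mem (inv_mem hb₀B) hbB) (by
    have h1 : Commute t ((homGL hK g₀)⁻¹) := (commute_homGL hK ht hval g₀).inv_right
    exact (h1.mul_right hc).eq)
  rcases hh with hh | hh
  · exact ⟨g₀ * h, Or.inl (by rw [map_mul, ← hh, mul_inv_cancel_left])⟩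
  · refine ⟨g₀ * h, Or.inr ?_⟩
    rw [map_mul, ← mul_assoc, (commute_homGL hK ht hval g₀).eq, mul_assoc, ← hh, mul_inv_cancel_left]

/-- The involution is not in the image. -/
theorem ne_homGL (g : SL(2, K)) : t ≠ homGL hK g := by
  intro e
  obtain ⟨c, rfl⟩ := exists_dgS hK (e ▸ ht.1 : homGL hK g ∈ chevG2.diagonalSubgroup K)
  have h1 := hval
  rw [show (⟨t, ht⟩ : ↥(chevG2.diagonalSubgroup K ⊓ twistedG2 K (3 ^ m))) =
    ⟨_, homGL_dgS_mem hK c, homGL_mem hK _⟩ from Subtype.ext e, val_dgS] at h1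
  have h2 : (c : K) ^ 3 ^ m = -1 * (c : K) := by
    have := (inv_mul_eq_iff_eq_mul₀ (pow_ne_zero _ c.ne_zero)).1 h1
    linear_combination this
  have h3 := (theta_fixed hK (ε := -1) (by ring) c.ne_zero h2).2
  haveI : CharP K 3 := charP_ree hK
  exact Ring.neg_one_ne_one_of_char_ne_two (by rw [ringChar.eq K 3]; norm_num) h3

omit ht hval in
/-- The kernel of the homomorphism is the centre. -/
theorem ker_homGL : (homGL hK).ker = Subgroup.center SL(2, K) := by
  ext g
  rw [MonoidHom.mem_ker]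
  constructor
  · intro h
    obtain ⟨c, rfl⟩ := exists_dgS hK (h ▸ one_mem _ : homGL hK g ∈ chevG2.diagonalSubgroup K)
    have h1 : (((c : K) ^ 3 ^ m))⁻¹ * c = 1 := by
      rw [← val_dgS hK c]
      convert map_one (reeTorusVal (K := K) (m := m))
      exact Subtype.ext h
    have h2 := (theta_fixed hK (ε := 1) (one_mul 1) c.ne_zero
      (by rw [one_mul]; exact ((inv_mul_eq_one₀ (pow_ne_zero _ c.ne_zero)).1 h1))).1
    refine Subgroup.mem_center_iff.2 fun x => ?_
    have hci : ((c⁻¹ : Kˣ) : K) = (c : K) := by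
      rw [Units.val_inv_eq_inv_val]; exact (eq_inv_of_mul_eq_one_left h2).symm
    apply Subtype.ext
    simp only [Matrix.SpecialLinearGroup.coe_mul, coe_dgS, hci]
    ext i j
    fin_cases i <;> fin_cases j <;> simp [Matrix.mul_apply, Fin.sum_univ_two, mul_comm]
  · intro h
    obtain ⟨r, hr, hrg⟩ := Matrix.SpecialLinearGroup.mem_center_iff.1 h
    rw [Fintype.card_fin, sq] at hr
    set c : Kˣ := ⟨r, r, hr, hr⟩
    have hg : g = dgS c := by
      apply Subtype.ext
      rw [← hrg, coe_dgS]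
      ext i j
      fin_cases i <;> fin_cases j <;> simp [c]
    refine congrArg (fun w : ↥(chevG2.diagonalSubgroup K ⊓ twistedG2 K (3 ^ m)) => (w : GL chevG2.Idx K))
      (reeTorusVal_injective hK (a₁ := ⟨homGL hK g, hg ▸ homGL_dgS_mem hK c, homGL_mem hK g⟩) (a₂ := 1) ?_)
    rw [map_one]
    subst hg
    rw [val_dgS]
    show (r ^ 3 ^ m)⁻¹ * r = 1
    rcases mul_self_eq_one_iff.1 hr with rfl | rfl
    · simp
    · rw [(Odd.pow (by decide : Odd 3)).neg_one_pow]; norm_num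

end CfsgLib.ReeInvolution
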