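import Cfsg.Agent.Lib.Twisted.ReeDouble
import Cfsg.Agent.Lib.Chevalley.SL2

/-!
The homomorphism from `SL₂(q)` into `²G₂(q)` given by the orthogonal roots `a + b` and `3a + b`.
-/

set_option autoImplicit false
set_option linter.unusedSectionVars false

namespace CfsgLib.ReeInvolution

open Cfsg.Lie
open CfsgLib.Twisted
open CfsgLib.Chevalley (auxG2 cert_G2 xG coe_xG xG_zero slRel_root slFun SLRel slN slH slX slW slY hG coe_hG chi
  torusHom acts_torus)
open scoped MatrixGroups

theorem root_data : chevG2.neg g2ab = g2mab ∧ chevG2.neg g2aaab = g2maaab ∧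
    g2ab < chevG2.nroots ∧ g2aaab < chevG2.nroots ∧ g2mab < chevG2.nroots ∧ g2maaab < chevG2.nroots ∧
    chevG2.pairing g2ab 7 = -1 ∧ chevG2.pairing g2aaab 7 = 1 := by
  decide +kernel

/-- A value of the Bruhat map commutes with what commutes with all parameters' images. -/
theorem slFun_commute {F : Type*} [Field F] [DecidableEq F] {G : Type*} [Group G] {x y : F → G} {z : G}
    (hx : ∀ t, Commute (x t) z) (hy : ∀ t, Commute (y t) z) (g : SL(2, F)) : Commute (slFun x y g) z := by
  have hn : ∀ u, Commute (slN x y u) z := fun u => ((hx _).mul_left (hy _)).mul_left (hx _)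
  unfold slFun
  split
  · exact ((hn _).mul_left (hn _)).mul_left (hx _)
  · exact ((hx _).mul_left (hn _)).mul_left (hx _)

variable {K : Type*} [Field K] [Fintype K] {m : ℕ}

/-- The root subgroup `X`. -/
noncomputable def xR (m : ℕ) (t : K) : GL chevG2.Idx K := xG cert_G2 g2ab (t ^ 3 ^ m) * xG cert_G2 g2aaab t

/-- The root subgroup `Y`. -/
noncomputable def yR (m : ℕ) (t : K) : GL chevG2.Idx K := xG cert_G2 g2mab (t ^ 3 ^ m) * xG cert_G2 g2maaab t

theorem xR_mem (t : K) : xR m t ∈ twistedG2 K (3 ^ m) := by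
  have he : (3 : ℕ) ^ m ≠ 0 := (Nat.pow_pos (by norm_num)).ne'
  have h : wordG cert_G2 (reeWordU (3 ^ m) (0 : K) t 0) = xR m t := by
    simp [reeWordU, wordG, zero_pow he, xG_zero, xR]
  rw [← h]
  exact wordG_mem_gen cert_G2 ⟨0, t, 0, Or.inl rfl⟩

theorem yR_mem (t : K) : yR m t ∈ twistedG2 K (3 ^ m) := by
  have he : (3 : ℕ) ^ m ≠ 0 := (Nat.pow_pos (by norm_num)).ne'
  have hodd : Odd ((3 : ℕ) ^ m) := Odd.pow (by decide)
  have h : wordG cert_G2 (reeWordV (3 ^ m) (0 : K) (-t) 0) = yR m t := by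
    simp only [yR, ← root_data.1, ← root_data.2.1]
    simp [reeWordV, reeWordU, ChevalleyDatum.negWord, wordG, zero_pow he, xG_zero, hodd.neg_pow]
    rfl
  rw [← h]
  exact wordG_mem_gen cert_G2 ⟨0, -t, 0, Or.inr rfl⟩

theorem commute_pairs : ∀ s t : K, ∀ r ∈ [g2ab, g2mab], ∀ r' ∈ [g2aaab, g2maaab],
    Commute (xG cert_G2 r s) (xG cert_G2 r' t) := by
  intro s t r hr r' hr'
  have hc := g2Comm_ok
  simp only [Bool.and_eq_true] at hc
  obtain ⟨⟨⟨⟨⟨⟨⟨⟨⟨⟨⟨⟨⟨⟨⟨⟨⟨⟨⟨⟨⟨⟨⟨c810, c81⟩, c310⟩, c31⟩, -⟩, -⟩, -⟩, -⟩, -⟩, -⟩, -⟩, -⟩, -⟩,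
    -⟩, -⟩, -⟩, -⟩, -⟩, -⟩, -⟩, -⟩, -⟩, -⟩, -⟩ := hc
  have key : ∀ a b : ℕ, checkCommute chevG2 a b = true → Commute (xG cert_G2 a s) (xG cert_G2 b t) := fun a b h =>
    Units.ext (rootCertG2.commute_x h s t).eq
  simp only [List.mem_cons, List.not_mem_nil, or_false] at hr hr'
  rcases hr with rfl | rfl <;> rcases hr' with rfl | rfl
  · exact key g2ab g2aaab c810
  · exact key g2ab g2maaab c81
  · exact key g2mab g2aaab c310
  · exact key g2mab g2maaab c31

/-- The parameter automorphism `t ↦ t^θ`. -/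
noncomputable def theta (hK : Fintype.card K = 3 ^ (2 * m + 1)) : K →+* K :=
  haveI : CharP K 3 := charP_ree hK
  haveI : Fact (Nat.Prime 3) := ⟨Nat.prime_three⟩
  iterateFrobenius K 3 m

theorem theta_apply (hK : Fintype.card K = 3 ^ (2 * m + 1)) (t : K) : theta hK t = t ^ 3 ^ m := by
  haveI : CharP K 3 := charP_ree hK
  haveI : Fact (Nat.Prime 3) := ⟨Nat.prime_three⟩
  exact iterateFrobenius_def 3 m t

theorem slRel_ab : SLRel (fun t : K => xG cert_G2 g2ab t) (fun t : K => xG cert_G2 g2mab t) := by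
  have h := slRel_root (F := K) fullReeG2 ⟨g2ab, root_data.2.2.1⟩
  rw [← root_data.1]
  exact h

theorem slRel_aaab : SLRel (fun t : K => xG cert_G2 g2aaab t) (fun t : K => xG cert_G2 g2maaab t) := by
  have h := slRel_root (F := K) fullReeG2 ⟨g2aaab, root_data.2.2.2.1⟩
  rw [← root_data.2.1]
  exact h

variable [DecidableEq K] (hK : Fintype.card K = 3 ^ (2 * m + 1))

/-- The homomorphism to `GL`. -/
noncomputable def homGL : SL(2, K) →* GL chevG2.Idx K :=
  MonoidHom.mk'
    (fun g => slRel_ab.hom (Matrix.SpecialLinearGroup.map (theta hK) g) * slRel_aaab.hom g)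
    (by
      intro g h
      have hc : ∀ g g' : SL(2, K), Commute (slRel_aaab.hom g) (slRel_ab.hom g') := fun g g' =>
        slFun_commute (fun t => (slFun_commute (fun s => commute_pairs s t _ (by simp) _ (by simp))
            (fun s => commute_pairs s t _ (by simp) _ (by simp)) g').symm)
          (fun t => (slFun_commute (fun s => commute_pairs s t _ (by simp) _ (by simp))
            (fun s => commute_pairs s t _ (by simp) _ (by simp)) g').symm) g
      simp only [map_mul]
      rw [mul_assoc, mul_assoc, ← mul_assoc (slRel_aaab.hom g), (hc g _).eq, mul_assoc])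

omit [Fintype K] in
theorem hom_X {G : Type*} [Group G] {x y : K → G} (R : SLRel x y) (t : K) : R.hom (slX t) = x t := by
  show slFun x y (slX t) = x t
  simp [slFun, slX, R.h_one]

omit [Fintype K] in
theorem hom_W {G : Type*} [Group G] {x y : K → G} (R : SLRel x y) : R.hom slW = slN x y 1 := by
  show slFun x y slW = _
  simp [slFun, slW, R.x_zero]

omit [Fintype K] in
theorem hom_Y {G : Type*} [Group G] {x y : K → G} (R : SLRel x y) (t : K) : R.hom (slY t) = y t := by
  rw [CfsgLib.Chevalley.slY_eq, map_mul, map_mul, map_mul, map_mul, hom_X, hom_W]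
  have h4 : (slW * slW * slW * slW : SL(2, K)) = 1 := by
    apply Subtype.ext
    simp only [Matrix.SpecialLinearGroup.coe_mul, CfsgLib.Chevalley.slW_coe]
    ext i j
    fin_cases i <;> fin_cases j <;> simp [Matrix.mul_apply, Fin.sum_univ_two]
  have hinv : slN x y 1 * slN x y 1 * slN x y 1 = (slN x y 1)⁻¹ := by
    refine eq_inv_of_mul_eq_one_left ?_
    rw [← hom_W R, ← map_mul, ← map_mul, ← map_mul, h4, map_one]
  rw [hinv, R.conjx 1 _ one_ne_zero]
  simp

theorem homGL_X (t : K) : homGL hK (slX t) = xR m t := by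
  show slRel_ab.hom (Matrix.SpecialLinearGroup.map (theta hK) (slX t)) * slRel_aaab.hom (slX t) = _
  rw [show Matrix.SpecialLinearGroup.map (theta hK) (slX t) = slX (theta hK t) from
    Matrix.SpecialLinearGroup.ext _ _ fun i j => by
      show theta hK ((slX t).1 i j) = (slX (theta hK t)).1 i j
      fin_cases i <;> fin_cases j <;> simp,
    hom_X, hom_X, theta_apply]
  rfl

theorem homGL_Y (t : K) : homGL hK (slY t) = yR m t := by
  show slRel_ab.hom (Matrix.SpecialLinearGroup.map (theta hK) (slY t)) * slRel_aaab.hom (slY t) = _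
  rw [show Matrix.SpecialLinearGroup.map (theta hK) (slY t) = slY (theta hK t) from
    Matrix.SpecialLinearGroup.ext _ _ fun i j => by
      show theta hK ((slY t).1 i j) = (slY (theta hK t)).1 i j
      fin_cases i <;> fin_cases j <;> simp,
    hom_Y, hom_Y, theta_apply]
  rfl

/-- Elementary matrices generate. -/
theorem closure_slXY {S : Subgroup (SL(2, K))} (hx : ∀ t, slX t ∈ S) (hy : ∀ t, slY t ∈ S) : S = ⊤ := by
  refine eq_top_iff.2 fun g _ => ?_
  have hne : ∀ g : SL(2, K), g.1 1 0 ≠ 0 → g ∈ S := by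
    intro g hc
    have e : g = slX ((g.1 0 0 - 1) / g.1 1 0) * slY (g.1 1 0) * slX ((g.1 1 1 - 1) / g.1 1 0) := by
      have hdet := CfsgLib.Chevalley.sl_det g
      apply Subtype.ext
      simp only [Matrix.SpecialLinearGroup.coe_mul, CfsgLib.Chevalley.slY_coe, CfsgLib.Chevalley.slX_coe]
      ext i j
      fin_cases i <;> fin_cases j <;>
        simp [Matrix.mul_apply, Fin.sum_univ_two] <;> field_simp <;>
        first | ring1 | linear_combination hdet | linear_combination -hdet
    rw [e]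
    exact mul_mem (mul_mem (hx _) (hy _)) (hx _)
  by_cases hc : g.1 1 0 = 0
  · have hdet := CfsgLib.Chevalley.sl_det g
    rw [hc, mul_zero, sub_zero] at hdet
    have h1 : slY 1 * g ∈ S := hne _ (by
      simpa [Matrix.mul_apply, Fin.sum_univ_two, hc] using left_ne_zero_of_mul_eq_one hdet)
    simpa using mul_mem (inv_mem (hy 1)) h1
  · exact hne g hc

theorem homGL_mem (g : SL(2, K)) : homGL hK g ∈ twistedG2 K (3 ^ m) := by
  have h : (twistedG2 K (3 ^ m)).comap (homGL hK) = ⊤ := closure_slXY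
    (fun t => by show homGL hK (slX t) ∈ twistedG2 K (3 ^ m); rw [homGL_X]; exact xR_mem t)
    (fun t => by show homGL hK (slY t) ∈ twistedG2 K (3 ^ m); rw [homGL_Y]; exact yR_mem t)
  have hg : g ∈ (twistedG2 K (3 ^ m)).comap (homGL hK) := h ▸ Subgroup.mem_top g
  exact hg

/-- The homomorphism into `²G₂(q)`. -/
noncomputable def hom : SL(2, K) →* ↥(twistedG2 K (3 ^ m)) := (homGL hK).codRestrict _ (homGL_mem hK)

end CfsgLib.ReeInvolution
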