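import Cfsg.Agent.Lib.ReeInvolution.Centralizer
import Cfsg.Agent.Lib.ClassicalForms.SLTwo.SylowTwo

/-!
`C(a) ≅ Z₂ × PSL₂(q)` for the involution of the torus of `²G₂(q)`, and the Sylow 2-subgroups.
-/

set_option autoImplicit false
set_option linter.unusedSectionVars false

namespace CfsgLib.ReeInvolution

open Cfsg.Lie
open CfsgLib.Twisted
open CfsgLib.Chevalley (slX slW)
open scoped MatrixGroups

variable {K : Type*} [Field K] [Fintype K] [DecidableEq K] {m : ℕ} (hK : Fintype.card K = 3 ^ (2 * m + 1))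
include hK

theorem centralizer_iso (a : ↥(twistedG2 K (3 ^ m))) (haH : (a : GL chevG2.Idx K) ∈ chevG2.diagonalSubgroup K)
    (ha1 : a ≠ 1) (ha2 : a * a = 1) :
    Nonempty (↥(Subgroup.centralizer {a}) ≃* Multiplicative (ZMod 2) × PSL(2, K)) := by
  set t : GL chevG2.Idx K := (a : GL chevG2.Idx K) with htdef
  have ht : t ∈ chevG2.diagonalSubgroup K ⊓ twistedG2 K (3 ^ m) := ⟨haH, a.2⟩
  have hval : reeTorusVal (⟨t, ht⟩ : ↥(chevG2.diagonalSubgroup K ⊓ twistedG2 K (3 ^ m))) = -1 := by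
    have h1 : (⟨t, ht⟩ : ↥(chevG2.diagonalSubgroup K ⊓ twistedG2 K (3 ^ m))) * ⟨t, ht⟩ = 1 :=
      Subtype.ext (congrArg Subtype.val ha2 :)
    have h2 := congrArg reeTorusVal h1
    rw [map_mul, map_one] at h2
    refine (mul_self_eq_one_iff.1 h2).resolve_left fun e => ha1 (Subtype.ext ?_)
    exact (congrArg (fun w : ↥(chevG2.diagonalSubgroup K ⊓ twistedG2 K (3 ^ m)) => (w : GL chevG2.Idx K))
      (reeTorusVal_injective hK (e.trans (map_one _).symm)) :)
  set C := Subgroup.centralizer ({a} : Set ↥(twistedG2 K (3 ^ m)))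
  have hmemC : ∀ g : SL(2, K), hom hK g ∈ C := fun g => by
    refine Subgroup.mem_centralizer_iff.2 fun y hy => ?_
    rw [Set.mem_singleton_iff.1 hy]
    exact Subtype.ext (commute_homGL hK ht hval g).eq
  let f₀ : SL(2, K) →* C := (hom hK).codRestrict C hmemC
  have hf₀ : ∀ g, (((f₀ g : C) : ↥(twistedG2 K (3 ^ m))) : GL chevG2.Idx K) = homGL hK g := fun g => rfl
  let f : PSL(2, K) →* C := QuotientGroup.lift _ f₀ fun g hg => by
    rw [← ker_homGL hK] at hg
    exact Subtype.ext (Subtype.ext hg)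
  let aC : C := ⟨a, Subgroup.mem_centralizer_iff.2 fun y hy => by rw [Set.mem_singleton_iff.1 hy]⟩
  have haC2 : aC * aC = 1 := Subtype.ext ha2
  let χ : Multiplicative (ZMod 2) →* C :=
    MonoidHom.mk' (fun x => aC ^ x.toAdd.val) fun x y => by
      rw [← pow_add]
      show aC ^ (x.toAdd + y.toAdd).val = _
      rw [ZMod.val_add]
      exact pow_eq_pow_iff_modEq.2 ((Nat.mod_modEq _ 2).of_dvd (orderOf_dvd_of_pow_eq_one (by rw [sq, haC2])))
  have hcomm : ∀ x y, Commute (χ x) (f y) := by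
    intro x y
    refine Commute.pow_left ?_ _
    exact Subtype.ext (Subgroup.mem_centralizer_iff.1 (f y).2 a rfl)
  let Φ := MonoidHom.noncommCoprod χ f hcomm
  refine ⟨(MulEquiv.ofBijective Φ ⟨?_, ?_⟩).symm⟩
  · rw [injective_iff_map_eq_one]
    rintro ⟨x, y⟩ hxy
    obtain ⟨g, rfl⟩ := QuotientGroup.mk_surjective y
    have hxy' : aC ^ x.toAdd.val * f₀ g = 1 := hxy
    have hv : x.toAdd.val = 0 ∨ x.toAdd.val = 1 := by have := ZMod.val_lt x.toAdd; omega
    rcases hv with hv | hv <;> rw [hv] at hxy'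
    · rw [pow_zero, one_mul] at hxy'
      refine Prod.ext ?_ ?_
      · exact Multiplicative.toAdd.injective ((ZMod.val_eq_zero _).1 hv)
      · refine (QuotientGroup.eq_one_iff _).2 ?_
        rw [← ker_homGL hK, MonoidHom.mem_ker, ← hf₀, hxy']
        rfl
    · refine absurd ?_ (ne_homGL hK ht hval g⁻¹)
      rw [pow_one, ← eq_inv_iff_mul_eq_one, ← map_inv] at hxy'
      exact (congrArg (fun w : C => ((w : ↥(twistedG2 K (3 ^ m))) : GL chevG2.Idx K)) hxy' :)
  · rintro ⟨⟨g, hg⟩, hgC⟩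
    have hgc : t * g = g * t :=
      (congrArg Subtype.val (Subgroup.mem_centralizer_iff.1 hgC a rfl) :)
    obtain ⟨h, rfl | rfl⟩ := exists_decomp hK ht hval hg hgc
    · refine ⟨(1, QuotientGroup.mk h), ?_⟩
      show χ 1 * f₀ h = _
      rw [map_one, one_mul]
      rfl
    · refine ⟨(Multiplicative.ofAdd 1, QuotientGroup.mk h), ?_⟩
      show aC ^ (1 : ZMod 2).val * f₀ h = _
      rw [ZMod.val_one, pow_one]
      rfl

theorem sylow_two (a : ↥(twistedG2 K (3 ^ m))) (haH : (a : GL chevG2.Idx K) ∈ chevG2.diagonalSubgroup K)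
    (ha1 : a ≠ 1) (ha2 : a * a = 1) (S : Sylow 2 ↥(twistedG2 K (3 ^ m))) :
    Nat.card S = 8 ∧ ∀ x ∈ S, x * x = 1 := by
  obtain ⟨e⟩ := centralizer_iso hK a haH ha1 ha2
  haveI : Fact (Nat.Prime 2) := ⟨Nat.prime_two⟩
  set q := 3 ^ (2 * m + 1) with hq
  have hq8 : q % 8 = 3 := by
    rw [hq, pow_succ, pow_mul, Nat.mul_mod, Nat.pow_mod]
    norm_num
  have hF : Nat.card K = q := by rw [Nat.card_eq_fintype_card, hK]
  obtain ⟨P⟩ := (inferInstance : Nonempty (Sylow 2 (PSL(2, K))))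
  have hP := CfsgLib.ClassicalForms.isKleinFour_sylow_psl2 hF (Or.inl hq8) P
  set E : Subgroup ↥(twistedG2 K (3 ^ m)) :=
    (((⊤ : Subgroup (Multiplicative (ZMod 2))).prod (P : Subgroup (PSL(2, K)))).map e.symm.toMonoidHom).map
      (Subgroup.centralizer {a}).subtype with hE
  have hEcard : Nat.card E = 8 := by
    rw [hE, Nat.card_congr (Subgroup.equivMapOfInjective _ _ (Subgroup.subtype_injective _)).toEquiv.symm,
      Nat.card_congr (Subgroup.equivMapOfInjective _ _ e.symm.injective).toEquiv.symm,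
      Nat.card_congr (Subgroup.prodEquiv _ _).toEquiv, Nat.card_prod, hP.card_four, Subgroup.card_top]
    simp
  have hEexp : ∀ x ∈ E, x * x = 1 := by
    rintro _ ⟨_, ⟨⟨i, p⟩, ⟨-, hp⟩, rfl⟩, rfl⟩
    rw [← map_mul, ← map_mul]
    have h1 : ((i, p) : Multiplicative (ZMod 2) × PSL(2, K)) * (i, p) = 1 := by
      refine Prod.ext ?_ ?_
      · exact Multiplicative.toAdd.injective (CharTwo.add_self_eq_zero i.toAdd)
      · haveI := hP
        have h2 := IsKleinFour.mul_self (⟨p, hp⟩ : (P : Subgroup (PSL(2, K))))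
        exact (congrArg Subtype.val h2 :)
    rw [h1, map_one, map_one]
  have hfac : (Nat.card ↥(twistedG2 K (3 ^ m))).factorization 2 = 3 := by
    rw [card_ree hK, ← hq]
    obtain ⟨k, hk⟩ : ∃ k, q = 8 * k + 3 := ⟨q / 8, by omega⟩
    set A := q ^ 3 with hA
    have hA8 : A % 8 = 3 := by rw [hA, Nat.pow_mod, hq8]
    obtain ⟨B, hB⟩ : ∃ B, A + 1 = 4 * (2 * B + 1) := ⟨A / 8, by omega⟩
    have e1 : A * (q - 1) * (A + 1) = 2 ^ 3 * (A * (4 * k + 1) * (2 * B + 1)) := by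
      rw [hB, show q - 1 = 2 * (4 * k + 1) by omega]; ring
    have hodd : ¬ 2 ∣ A * (4 * k + 1) * (2 * B + 1) := by
      rw [Nat.prime_two.dvd_mul, Nat.prime_two.dvd_mul]; omega
    rw [e1, Nat.factorization_mul (by norm_num) (fun h => hodd (by rw [h]; exact dvd_zero 2)), Finsupp.add_apply,
      Nat.factorization_pow, Finsupp.smul_apply, Nat.Prime.factorization_self Nat.prime_two,
      Nat.factorization_eq_zero_of_not_dvd hodd]
    rfl
  have hScard : Nat.card S = 8 := by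
    rw [Sylow.card_eq_multiplicity, hfac]
    rfl
  refine ⟨hScard, fun x hx => ?_⟩
  let S₀ : Sylow 2 ↥(twistedG2 K (3 ^ m)) := Sylow.ofCard E (by rw [hEcard, hfac]; rfl)
  obtain ⟨g, hg⟩ := MulAction.exists_smul_eq ↥(twistedG2 K (3 ^ m)) S₀ S
  rw [← hg] at hx
  change x ∈ ((g • S₀ : Sylow 2 ↥(twistedG2 K (3 ^ m))) : Subgroup ↥(twistedG2 K (3 ^ m))) at hx
  rw [Sylow.coe_subgroup_smul] at hx
  obtain ⟨y, hy, rfl⟩ := Subgroup.mem_smul_pointwise_iff_exists _ _ _ |>.1 hx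
  rw [← smul_mul', hEexp y hy, smul_one]

end CfsgLib.ReeInvolution
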