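import Cfsg.Agent.Lib.ReeInvolution.Hom

/-!
The image of the homomorphism: diagonal elements, the kernel, and the elements centralised by the involution of
the torus.
-/

set_option autoImplicit false
set_option linter.unusedSectionVars false

namespace CfsgLib.ReeInvolution

open Cfsg.Lie
open CfsgLib.Twisted
open CfsgLib.Chevalley (auxG2 cert_G2 xG coe_xG xG_zero slRel_root slFun SLRel slN slH slX slW slY hG coe_hG chi
  torusHom acts_torus coe_torusHom prodU)
open scoped MatrixGroups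

variable {K : Type*} [Field K] [Fintype K] [DecidableEq K] {m : ℕ} (hK : Fintype.card K = 3 ^ (2 * m + 1))

/-- Upper triangular with zero corner: `diag(c, c⁻¹)`. -/
def dgS (c : Kˣ) : SL(2, K) := ⟨!![(c : K), 0; 0, ((c⁻¹ : Kˣ) : K)], by simp [Matrix.det_fin_two]⟩

theorem coe_dgS (c : Kˣ) : (dgS c : SL(2, K)).1 = !![(c : K), 0; 0, ((c⁻¹ : Kˣ) : K)] := rfl

theorem homGL_dgS (c : Kˣ) :
    homGL hK (dgS c) = hG cert_G2 g2ab ((c : K) ^ 3 ^ m) * hG cert_G2 g2aaab (c : K) := by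
  have h1 : ∀ {x y : K → GL chevG2.Idx K} (R : SLRel x y) (g : SL(2, K)) (a : K),
      g.1 1 0 = 0 → g.1 0 0 = a → g.1 0 1 = 0 → R.hom g = slH x y a := by
    intro x y R g a hc ha hb
    show slFun x y g = _
    rw [slFun, if_pos hc, ha, hb, zero_div, R.x_zero, mul_one]
  show slRel_ab.hom (Matrix.SpecialLinearGroup.map (theta hK) (dgS c)) * slRel_aaab.hom (dgS c) = _
  rw [h1 slRel_ab _ ((c : K) ^ 3 ^ m) (by show theta hK ((dgS c).1 1 0) = 0; simp [dgS])
      (by show theta hK ((dgS c).1 0 0) = _; simp [dgS, theta_apply])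
      (by show theta hK ((dgS c).1 0 1) = 0; simp [dgS]),
    h1 slRel_aaab (dgS c) (c : K) (by simp [dgS]) (by simp [dgS]) (by simp [dgS])]
  rw [← root_data.1, ← root_data.2.1]
  rfl

theorem homGL_dgS_mem (c : Kˣ) : homGL hK (dgS c) ∈ chevG2.diagonalSubgroup K := by
  rw [homGL_dgS]
  exact Subgroup.mul_mem _
    (Subgroup.subset_closure ⟨_, _, root_data.2.2.1, pow_ne_zero _ c.ne_zero, coe_hG _ _ _⟩)
    (Subgroup.subset_closure ⟨_, _, root_data.2.2.2.1, c.ne_zero, coe_hG _ _ _⟩)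

theorem val_dgS (c : Kˣ) :
    reeTorusVal (⟨homGL hK (dgS c), homGL_dgS_mem hK c, homGL_mem hK _⟩ :
      ↥(chevG2.diagonalSubgroup K ⊓ twistedG2 K (3 ^ m))) = (((c : K) ^ 3 ^ m))⁻¹ * c := by
  show ((homGL hK (dgS c) : GL chevG2.Idx K) : Matrix chevG2.Idx chevG2.Idx K) _ _ = _
  rw [homGL_dgS, Units.val_mul, coe_hG, coe_hG, rootCertG2.hMat_diag root_data.2.2.1 (pow_ne_zero _ c.ne_zero),
    rootCertG2.hMat_diag root_data.2.2.2.1 c.ne_zero, pairDiag, pairDiag, Matrix.diagonal_mul_diagonal,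
    Matrix.diagonal_apply_eq]
  show ((c : K) ^ 3 ^ m) ^ chevG2.pairing g2ab 7 * (c : K) ^ chevG2.pairing g2aaab 7 = _
  simp [root_data.2.2.2.2.2.2.1, root_data.2.2.2.2.2.2.2]

include hK in
theorem xR_eq_one {s : K} (h : xR m s = 1) : s = 0 := by
  have he : (3 : ℕ) ^ m ≠ 0 := (Nat.pow_pos (by norm_num)).ne'
  have hw : wordG cert_G2 (reeWordU (3 ^ m) (0 : K) s 0) = xR m s := by
    simp [reeWordU, wordG, zero_pow he, xG_zero, xR]
  have hu := reeWordU_coord hK (f := fun _ => (0 : K)) (t := 0) (u := s) (v := 0) (by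
    rw [hw, h, CfsgLib.Chevalley.prodU]
    refine (List.prod_eq_one fun x hx => ?_).symm
    obtain ⟨r, -, rfl⟩ := List.mem_map.1 hx
    exact xG_zero _ _)
  simpa [zero_mul] using hu.2.1.symm

include hK in
theorem xR_mem_pos (s : K) : xR m s ∈ chevG2.posUnipotent K := by
  have he : (3 : ℕ) ^ m ≠ 0 := (Nat.pow_pos (by norm_num)).ne'
  have hw : wordG cert_G2 (reeWordU (3 ^ m) (0 : K) s 0) = xR m s := by
    simp [reeWordU, wordG, zero_pow he, xG_zero, xR]
  exact ((mem_unipotent_g2 hK (g2Twist_isTwist hK) le_rfl _).2 ⟨0, s, 0, hw.symm⟩).2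

theorem yR_mem_neg (s : K) : yR m s ∈ chevG2.negUnipotent K := by
  have h : chevG2.IsNegRoot g2mab ∧ chevG2.IsNegRoot g2maaab := by decide +kernel
  exact Subgroup.mul_mem _ (Subgroup.subset_closure ⟨_, _, h.1, rfl⟩) (Subgroup.subset_closure ⟨_, _, h.2, rfl⟩)

/-- Only upper triangular matrices go into the Borel subgroup. -/
theorem lower_eq_zero {g : SL(2, K)} (h : homGL hK g ∈ chevG2.borelSubgroup K) : g.1 1 0 = 0 := by
  by_contra hc
  set c := g.1 1 0 with hcdef
  have hX : ∀ t, homGL hK (slX t) ∈ chevG2.borelSubgroup K := fun t => by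
    rw [homGL_X]; exact Subgroup.mem_sup_left (xR_mem_pos hK t)
  have hdet := CfsgLib.Chevalley.sl_det g
  obtain ⟨w, hwM, hwB⟩ : ∃ w : SL(2, K), w.1 = !![0, -c⁻¹; c, 0] ∧ homGL hK w ∈ chevG2.borelSubgroup K := by
    refine ⟨slX (-(g.1 0 0 / c)) * g * slX (-(g.1 1 1 / c)), ?_, ?_⟩
    · simp only [Matrix.SpecialLinearGroup.coe_mul, CfsgLib.Chevalley.slX_coe]
      rw [hcdef] at hc ⊢
      ext i j
      fin_cases i <;> fin_cases j <;> simp [Matrix.mul_apply, Fin.sum_univ_two, Matrix.vecMul, dotProduct] <;> (try field_simp) <;>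
        first | ring1 | linear_combination hdet | linear_combination -hdet
    · rw [map_mul, map_mul]; exact mul_mem (mul_mem (hX _) h) (hX _)
  have e : w * slX 1 = slY (-(c * c)) * w := by
    apply Subtype.ext
    simp only [Matrix.SpecialLinearGroup.coe_mul, hwM, CfsgLib.Chevalley.slX_coe, CfsgLib.Chevalley.slY_coe]
    ext i j
    fin_cases i <;> fin_cases j <;> simp [Matrix.mul_apply, Fin.sum_univ_two] <;> field_simp
  clear_value c
  have e' := congrArg (homGL hK) e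
  rw [map_mul, map_mul, homGL_X, homGL_Y, ← mul_inv_eq_iff_eq_mul] at e'
  have hy : yR m (-(c * c) : K) ∈ chevG2.borelSubgroup K ⊓ chevG2.negUnipotent K :=
    ⟨e' ▸ Subgroup.mem_sup_left (IsRankOne.conj_pos fullReeG2 hwB (xR_mem_pos hK 1)), yR_mem_neg _⟩
  rw [CfsgLib.Chevalley.borel_inf_negUnipotent fullReeG2, Subgroup.mem_bot, ← e', conj_eq_one_iff] at hy
  exact one_ne_zero (xR_eq_one hK hy)

/-- Only diagonal matrices go into the torus. -/
theorem exists_dgS {g : SL(2, K)} (h : homGL hK g ∈ chevG2.diagonalSubgroup K) : ∃ c : Kˣ, g = dgS c := by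
  have hc := lower_eq_zero hK (Subgroup.mem_sup_right h)
  have hdet := CfsgLib.Chevalley.sl_det g
  rw [hc, mul_zero, sub_zero] at hdet
  set c : Kˣ := Units.mk0 (g.1 0 0) (left_ne_zero_of_mul_eq_one hdet)
  have hd : g.1 1 1 = ((c⁻¹ : Kˣ) : K) := by
    rw [Units.val_inv_eq_inv_val]; exact eq_inv_of_mul_eq_one_right hdet
  have e : g = dgS c * slX (g.1 0 1 / g.1 0 0) := by
    apply Subtype.ext
    ext i j
    fin_cases i <;> fin_cases j <;>
      simp [coe_dgS, Matrix.mul_apply, Fin.sum_univ_two, hc, hd, c, mul_div_cancel₀, left_ne_zero_of_mul_eq_one hdet]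
  have h2 : xR m (g.1 0 1 / g.1 0 0) = 1 := by
    refine CfsgLib.Chevalley.eq_one_of_mem_pos_diagonal fullReeG2 (xR_mem_pos hK _) ?_
    rw [e, map_mul, homGL_X] at h
    exact (Subgroup.mul_mem_cancel_left _ (homGL_dgS_mem hK c)).1 h
  refine ⟨c, ?_⟩
  conv_lhs => rw [e, xR_eq_one hK h2]
  apply Subtype.ext
  ext i j
  fin_cases i <;> fin_cases j <;> simp [coe_dgS, Matrix.mul_apply, Fin.sum_univ_two]

include hK in
/-- The fixed points of `θ`, up to sign. -/
theorem theta_fixed {c : K} {ε : K} (hε : ε * ε = 1) (hc0 : c ≠ 0) (h : c ^ 3 ^ m = ε * c) :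
    c * c = 1 ∧ ε = 1 := by
  have hεn : ε ^ 3 ^ m = ε := by
    rcases mul_self_eq_one_iff.1 hε with rfl | rfl
    · exact one_pow _
    · exact (Odd.pow (by decide)).neg_one_pow
  have h3 := g2Twist_cycle hK c
  rw [h, mul_pow, hεn, h, ← mul_assoc, hε, one_mul] at h3
  have hcc : c * c = 1 := by
    refine mul_right_cancel₀ hc0 ?_
    rw [one_mul]
    calc c * c * c = c ^ 3 := by ring
      _ = c := h3
  refine ⟨hcc, ?_⟩
  have hcn : c ^ 3 ^ m = c := by
    rcases mul_self_eq_one_iff.1 hcc with rfl | rfl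
    · exact one_pow _
    · exact (Odd.pow (by decide)).neg_one_pow
  rw [hcn] at h
  exact (mul_left_eq_self₀.1 h.symm).resolve_right hc0

end CfsgLib.ReeInvolution
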